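import Mathlib
import Cfsg.Agent.Lib.Helper75.LW.Defs45

/-!
# LW45 (S0745), package [E79]: no sharply 4-transitive group of degree 7 or 9
-/

set_option autoImplicit false

namespace Cfsg.Agent.Lib.Helper74.LW

open Cfsg.Agent.Lib.Helper75.LW

universe u

theorem e79_card_aux (N m : ℕ) (hN : N = 4 ∨ N = 6) (hd : m ∣ N) (h2 : 2 ∣ m)
    (h3 : N % 3 = m % 3) : m = N := by
  have hle : m ≤ N := Nat.le_of_dvd (by omega) hd
  rcases hN with rfl | rfl
  · interval_cases m <;> omega
  · interval_cases m <;> omega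

theorem e79_card3 {α : Type u} [DecidableEq α] {c d e : α} (hcd : c ≠ d) (hce : c ≠ e)
    (hde : d ≠ e) : ({c, d, e} : Finset α).card = 3 := by
  rw [Finset.card_insert_of_notMem (by simp [hcd, hce]), Finset.card_pair hde]

theorem e79_card4 {α : Type u} [DecidableEq α] {c d e w : α} (hcd : c ≠ d) (hce : c ≠ e)
    (hcw : c ≠ w) (hde : d ≠ e) (hdw : d ≠ w) (hew : e ≠ w) :
    ({c, d, e, w} : Finset α).card = 4 := by
  rw [Finset.card_insert_of_notMem (by simp [hcd, hce, hcw]), e79_card3 hde hdw hew]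

/-- [E79] -/
theorem pkgE79 (hU : PkgU.{u}) (hExt : PkgExt.{u}) (hMono : PkgMono.{u}) (hCntT : PkgCntT.{u}) :
    PkgE79.{u} := by
  intro α _ _ G hT4 hTriv hn
  have hn4 : 4 ≤ Fintype.card α := by rcases hn with h | h <;> omega
  obtain ⟨emb⟩ : Nonempty (Fin 4 ↪ α) :=
    Function.Embedding.nonempty_of_card_le (by simpa using hn4)
  obtain ⟨c, d, e, w, hcd, hce, hcw, hde, hdw, hew⟩ :
      ∃ c d e w : α, c ≠ d ∧ c ≠ e ∧ c ≠ w ∧ d ≠ e ∧ d ≠ w ∧ e ≠ w :=
    ⟨emb 0, emb 1, emb 2, emb 3, emb.injective.ne (by decide), emb.injective.ne (by decide),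
      emb.injective.ne (by decide), emb.injective.ne (by decide), emb.injective.ne (by decide),
      emb.injective.ne (by decide)⟩
  have hT3 : HT G 3 := hMono G 3 4 (by norm_num) hn4 hT4
  have hc3 : ({c, d, e} : Finset α).card = 3 := e79_card3 hcd hce hde
  have hc4 : ({c, d, e, w} : Finset α).card = 4 := e79_card4 hcd hce hcw hde hdw hew
  have hHmem : ∀ g, g ∈ PS G {c, d, e} ↔ g ∈ G ∧ g c = c ∧ g d = d ∧ g e = e := by
    intro g
    rw [mem_PS]
    constructor
    · rintro ⟨h1, h2⟩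
      exact ⟨h1, h2 c (by simp), h2 d (by simp), h2 e (by simp)⟩
    · rintro ⟨h1, h2, h3, h4⟩
      refine ⟨h1, fun a ha => ?_⟩
      simp only [Finset.mem_insert, Finset.mem_singleton] at ha
      rcases ha with h | h | h <;> rw [h] <;> assumption
  generalize hH : PS G {c, d, e} = H at hHmem
  -- the order of H
  have hcardH : Nat.card H = 4 ∨ Nat.card H = 6 := by
    have h4 := hCntT G 4 {c, d, e, w} hc4 hT4
    have h3 := hCntT G 3 {c, d, e} hc3 hT3
    have hbot : PS G {c, d, e, w} = ⊥ := by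
      rw [eq_bot_iff]
      intro g hg
      rw [mem_PS] at hg
      exact hTriv _ hc4 g hg.1 hg.2
    rw [hbot, Subgroup.card_bot, mul_one] at h4
    rw [h4, hH] at h3
    rcases hn with h | h
    · left
      rw [h] at h3
      have e1 : (7 : ℕ).descFactorial 4 = 840 := by decide
      have e2 : (7 : ℕ).descFactorial 3 = 210 := by decide
      rw [e1, e2] at h3
      omega
    · right
      rw [h] at h3
      have e1 : (9 : ℕ).descFactorial 4 = 3024 := by decide
      have e2 : (9 : ℕ).descFactorial 3 = 504 := by decide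
      rw [e1, e2] at h3
      omega
  have h2dvd : 2 ∣ Nat.card H := by rcases hcardH with h | h <;> rw [h] <;> decide
  haveI : Fact (Nat.Prime 2) := ⟨Nat.prime_two⟩
  obtain ⟨z0, hz0⟩ := exists_prime_orderOf_dvd_card' 2 h2dvd
  obtain ⟨z, hzH, hz2, hz1⟩ : ∃ z : Equiv.Perm α, z ∈ H ∧ z * z = 1 ∧ z ≠ 1 := by
    refine ⟨z0.1, z0.2, ?_, ?_⟩
    · have h1 : z0 ^ 2 = 1 := by rw [← hz0]; exact pow_orderOf_eq_one z0
      have h2 : (z0 : Equiv.Perm α) ^ 2 = 1 := by
        have := congrArg Subtype.val h1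
        simpa using this
      rw [← pow_two]; exact h2
    · intro h
      have h1 : z0 = 1 := Subtype.ext h
      rw [h1, orderOf_one] at hz0
      exact absurd hz0 (by norm_num)
  have hfix2 : ∀ g : Equiv.Perm α, g c = c → g d = d → ∀ p ∈ ({c, d} : Finset α), g p = p := by
    intro g h1 h2 p hp
    simp only [Finset.mem_insert, Finset.mem_singleton] at hp
    rcases hp with h | h <;> rw [h] <;> assumption
  -- uniqueness of the involution
  have huniq : ∀ z' ∈ H, z' * z' = 1 → z' ≠ 1 → z' = z := by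
    intro z' hz'H hz'2 hz'1
    have hzm := (hHmem z).1 hzH
    have hz'm := (hHmem z').1 hz'H
    refine hU G {c, d} e (by simp [hce.symm, hde.symm]) ?_ ?_ ?_ z' hz'm.1 z hzm.1 hz'2 hz2
      hz'1 hz1 (hfix2 z' hz'm.2.1 hz'm.2.2.1) hz'm.2.2.2 (hfix2 z hzm.2.1 hzm.2.2.1) hzm.2.2.2
    · intro y hy
      simp only [Finset.mem_insert, Finset.mem_singleton, not_or] at hy
      obtain ⟨g, hg, hg'⟩ := hExt G 3 {c, d, e} (Equiv.swap e y) hc3 hT3
        (Equiv.swap e y).injective.injOn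
      refine ⟨g, hg, hfix2 g ?_ ?_, ?_⟩
      · rw [hg' c (by simp)]; exact Equiv.swap_apply_of_ne_of_ne hce (Ne.symm hy.1)
      · rw [hg' d (by simp)]; exact Equiv.swap_apply_of_ne_of_ne hde (Ne.symm hy.2)
      · rw [hg' e (by simp)]; exact Equiv.swap_apply_left e y
    · intro g hg hgΛ y1 y2 hy1 hy2 hne h1 h2
      simp only [Finset.mem_insert, Finset.mem_singleton, not_or] at hy1 hy2
      refine hTriv {c, d, y1, y2} (e79_card4 hcd (Ne.symm hy1.1) (Ne.symm hy2.1)
        (Ne.symm hy1.2) (Ne.symm hy2.2) hne) g hg ?_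
      intro a ha
      simp only [Finset.mem_insert, Finset.mem_singleton] at ha
      rcases ha with h | h | h | h
      · rw [h]; exact hgΛ _ (by simp)
      · rw [h]; exact hgΛ _ (by simp)
      · rw [h]; exact h1
      · rw [h]; exact h2
    · exact ⟨z, hzm.1, hz1, hfix2 z hzm.2.1 hzm.2.2.1, hzm.2.2.2⟩
  -- the 3-cycle
  obtain ⟨y, hyG, hy'⟩ := hExt G 4 {c, d, e, w} (Equiv.swap c d * Equiv.swap d e) hc4 hT4
    (Equiv.swap c d * Equiv.swap d e).injective.injOn
  have hyc : y c = d := by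
    rw [hy' c (by simp)]
    simp [Equiv.Perm.mul_apply, Equiv.swap_apply_of_ne_of_ne hcd hce]
  have hyd : y d = e := by
    rw [hy' d (by simp)]
    simp [Equiv.Perm.mul_apply, Equiv.swap_apply_of_ne_of_ne hce.symm hde.symm]
  have hye : y e = c := by
    rw [hy' e (by simp)]
    simp [Equiv.Perm.mul_apply]
  have hyw : y w = w := by
    rw [hy' w (by simp)]
    simp [Equiv.Perm.mul_apply, Equiv.swap_apply_of_ne_of_ne hdw.symm hew.symm,
      Equiv.swap_apply_of_ne_of_ne hcw.symm hdw.symm]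
  have hy3 : y * y * y = 1 := by
    refine hTriv {c, d, e, w} hc4 _ (G.mul_mem (G.mul_mem hyG hyG) hyG) ?_
    intro a ha
    simp only [Finset.mem_insert, Finset.mem_singleton] at ha
    rcases ha with h | h | h | h <;> rw [h] <;> simp [Equiv.Perm.mul_apply, hyc, hyd, hye, hyw]
  have hnorm : ∀ h ∈ H, y * h * y⁻¹ ∈ H := by
    intro h hh
    obtain ⟨h1, h2, h3, h4⟩ := (hHmem h).1 hh
    have i1 : y⁻¹ c = e := by rw [Equiv.Perm.inv_eq_iff_eq, hye]
    have i2 : y⁻¹ d = c := by rw [Equiv.Perm.inv_eq_iff_eq, hyc]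
    have i3 : y⁻¹ e = d := by rw [Equiv.Perm.inv_eq_iff_eq, hyd]
    refine (hHmem _).2 ⟨G.mul_mem (G.mul_mem hyG h1) (G.inv_mem hyG), ?_, ?_, ?_⟩
    · simp [Equiv.Perm.mul_apply, i1, h4, hye]
    · simp [Equiv.Perm.mul_apply, i2, h2, hyc]
    · simp [Equiv.Perm.mul_apply, i3, h3, hyd]
  have hyz : y * z * y⁻¹ = z := by
    refine huniq _ (hnorm z hzH) ?_ ?_
    · rw [show y * z * y⁻¹ * (y * z * y⁻¹) = y * (z * z) * y⁻¹ by group, hz2]; group
    · rw [Ne, conj_eq_one_iff]; exact hz1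
  -- the centraliser of y in H
  have hCmem : ∀ g, g ∈ H ⊓ Subgroup.centralizer {y} ↔ g ∈ H ∧ y * g * y⁻¹ = g := by
    intro g
    rw [Subgroup.mem_inf, Subgroup.mem_centralizer_iff]
    constructor
    · rintro ⟨h1, h2⟩
      refine ⟨h1, ?_⟩
      rw [h2 y rfl, mul_inv_cancel_right]
    · rintro ⟨h1, h2⟩
      refine ⟨h1, fun h hh => ?_⟩
      rw [Set.mem_singleton_iff] at hh
      rw [hh]; exact mul_inv_eq_iff_eq_mul.mp h2
  have hCH : H ⊓ Subgroup.centralizer {y} ≤ H := inf_le_left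
  generalize hC : H ⊓ Subgroup.centralizer {y} = C at hCmem hCH
  have hmod : Nat.card H % 3 = Nat.card C % 3 := by
    classical
    haveI : Fintype H := Fintype.ofFinite H
    let f : Function.End H := fun h => ⟨y * h.1 * y⁻¹, hnorm h.1 h.2⟩
    have hf : f ^ 3 ^ 1 = 1 := by
      funext h
      apply Subtype.ext
      show y * (y * (y * h.1 * y⁻¹) * y⁻¹) * y⁻¹ = h.1
      rw [show y * (y * (y * h.1 * y⁻¹) * y⁻¹) * y⁻¹ = (y * y * y) * h.1 * (y * y * y)⁻¹ by group,
        hy3]
      simp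
    haveI : Fact (Nat.Prime 3) := ⟨Nat.prime_three⟩
    have key := Equiv.Perm.card_fixedPoints_modEq (p := 3) (n := 1) hf
    have e1 : Fintype.card (Function.fixedPoints f) = Nat.card C := by
      rw [← Nat.card_eq_fintype_card]
      refine Nat.card_congr ?_
      exact
        { toFun := fun h => ⟨h.1.1, (hCmem _).2 ⟨h.1.2, congrArg Subtype.val h.2⟩⟩
          invFun := fun g => ⟨⟨g.1, ((hCmem _).1 g.2).1⟩, Subtype.ext ((hCmem _).1 g.2).2⟩
          left_inv := fun h => rfl
          right_inv := fun g => rfl }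
    rw [e1, ← Nat.card_eq_fintype_card] at key
    exact key
  have h2C : 2 ∣ Nat.card C := by
    have hzC : z ∈ C := (hCmem z).2 ⟨hzH, hyz⟩
    have h1 : orderOf z = 2 := orderOf_eq_prime (by rw [pow_two]; exact hz2) hz1
    rw [← h1]
    exact Subgroup.orderOf_dvd_natCard C hzC
  have hCeq : Nat.card C = Nat.card H :=
    e79_card_aux _ _ hcardH (Subgroup.card_dvd_of_le hCH) h2C hmod
  have hCH' : C = H := Subgroup.eq_of_le_of_card_ge hCH hCeq.ge
  have hcomm : ∀ h ∈ H, y * h = h * y := by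
    intro h hh
    rw [← hCH'] at hh
    exact mul_inv_eq_iff_eq_mul.mp ((hCmem h).1 hh).2
  have hfixall : ∀ a, a ∉ ({c, d, e} : Finset α) → y a = a := by
    intro a ha
    simp only [Finset.mem_insert, Finset.mem_singleton, not_or] at ha
    obtain ⟨g, hg, hg'⟩ := hExt G 4 {c, d, e, w} (Equiv.swap w a) hc4 hT4
      (Equiv.swap w a).injective.injOn
    have g1 : g c = c := by
      rw [hg' c (by simp)]; exact Equiv.swap_apply_of_ne_of_ne hcw (Ne.symm ha.1)
    have g2 : g d = d := by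
      rw [hg' d (by simp)]; exact Equiv.swap_apply_of_ne_of_ne hdw (Ne.symm ha.2.1)
    have g3 : g e = e := by
      rw [hg' e (by simp)]; exact Equiv.swap_apply_of_ne_of_ne hew (Ne.symm ha.2.2)
    have g4 : g w = a := by rw [hg' w (by simp)]; exact Equiv.swap_apply_left w a
    have hgH : g ∈ H := (hHmem g).2 ⟨hg, g1, g2, g3⟩
    have h5 := hcomm g hgH
    calc y a = y (g w) := by rw [g4]
      _ = (y * g) w := rfl
      _ = (g * y) w := by rw [h5]
      _ = g (y w) := rfl
      _ = a := by rw [hyw, g4]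
  have hcompl : 4 ≤ (({c, d, e} : Finset α)ᶜ).card := by
    rw [Finset.card_compl, hc3]
    rcases hn with h | h <;> omega
  obtain ⟨t, hts, htc⟩ := Finset.exists_subset_card_eq hcompl
  have hy1 : y = 1 := hTriv t htc y hyG (fun a ha => hfixall a (by
    have h1 := hts ha
    rw [Finset.mem_compl] at h1
    exact h1))
  rw [hy1] at hyc
  exact hcd hyc

end Cfsg.Agent.Lib.Helper74.LW
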