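import Mathlib
import Cfsg.Agent.Lib.Helper75.LW.Defs45

/-!
# LW45 (S0745), package [U]: uniqueness of the involution in a Frobenius complement
-/

set_option autoImplicit false

namespace Cfsg.Agent.Lib.Helper74.LW

open Cfsg.Agent.Lib.Helper75.LW

universe u

/-- [U] -/
theorem pkgU (hKer : PkgKer.{u}) (hInv : PkgInvert.{u}) : PkgU.{u} := by
  intro α _ _ G Λ₀ x hx htr h2 hnt z₁ hz₁ z₂ hz₂ hz₁2 hz₂2 hz₁1 hz₂1 hz₁Λ hz₁x hz₂Λ hz₂x
  obtain ⟨F, hFG, hFfix, hFtr, hFfree, hFnorm, -⟩ := hKer G Λ₀ x hx htr h2 hnt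
  have hFx : ∀ f ∈ F, f x ∉ Λ₀ := by
    intro f hf hfx
    have h1 := hFfix f hf (f x) hfx
    have h2 : f x = x := f.injective h1
    exact hx (h2 ▸ hfx)
  have key : ∀ z ∈ G, z * z = 1 → z ≠ 1 → (∀ p ∈ Λ₀, z p = p) → z x = x →
      ∀ f ∈ F, z * f * z⁻¹ = f⁻¹ := by
    intro z hz hz2 hz1 hzΛ hzx
    refine hInv F z hz2
      (fun f hf => hFnorm z hz (fun p hp => by rw [hzΛ p hp]; exact hp) f hf) ?_
    intro f hf hcomm
    apply hFfree f hf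
    by_contra hne
    apply hz1
    have hzf : z (f x) = f x := by
      have e : z * f = f * z := mul_inv_eq_iff_eq_mul.mp hcomm
      calc z (f x) = (z * f) x := rfl
        _ = (f * z) x := by rw [e]
        _ = f x := by rw [Equiv.Perm.mul_apply, hzx]
    exact h2 z hz hzΛ x (f x) hx (hFx f hf) (Ne.symm hne) hzx hzf
  have h1 := key z₁ hz₁ hz₁2 hz₁1 hz₁Λ hz₁x
  have h2' := key z₂ hz₂ hz₂2 hz₂1 hz₂Λ hz₂x
  have hw : z₁ * z₂ = 1 := by
    ext y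
    by_cases hy : y ∈ Λ₀
    · simp [Equiv.Perm.mul_apply, hz₂Λ y hy, hz₁Λ y hy]
    · obtain ⟨f, hf, hfy⟩ := hFtr y hy
      have e1 : z₂ * f = f⁻¹ * z₂ := mul_inv_eq_iff_eq_mul.mp (h2' f hf)
      have e2 : z₁ * f⁻¹ = f * z₁ := by
        have h3 := h1 f⁻¹ (F.inv_mem hf)
        rw [inv_inv] at h3
        exact mul_inv_eq_iff_eq_mul.mp h3
      rw [← hfy]
      calc (z₁ * z₂) (f x) = (z₁ * (z₂ * f)) x := rfl
        _ = (z₁ * (f⁻¹ * z₂)) x := by rw [e1]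
        _ = ((z₁ * f⁻¹) * z₂) x := by rw [mul_assoc]
        _ = ((f * z₁) * z₂) x := by rw [e2]
        _ = f x := by simp [Equiv.Perm.mul_apply, hz₂x, hz₁x]
  have h3 : z₁ = z₂⁻¹ := eq_inv_of_mul_eq_one_left hw
  rw [h3]
  exact inv_eq_of_mul_eq_one_left hz₂2

end Cfsg.Agent.Lib.Helper74.LW
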